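import Mathlib
import Cfsg.Agent.Lib.Helper14.PG63.Defs
import Cfsg.Agent.Lib.Helper40.SympOrder
import Cfsg.Agent.Lib.Helper40.SympCenter

/-!
# Project PG63 (S3664): package [PSPV]

The primes dividing the order of `PSp₆(3)` are `2, 3, 5, 7, 13`.
-/

set_option autoImplicit false

namespace Cfsg.Agent.Lib.Helper34.PG63

open Matrix

universe u

/-- The order of `PSp₆(3)`. -/
theorem card_PSp6_three {F : Type u} [Field F] [Fintype F] (hF : Fintype.card F = 3) :
    Nat.card (Cfsg.PSp 3 F) = 2 ^ 9 * 3 ^ 9 * 5 * 7 * 13 := by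
  have h1 := Cfsg.Agent.Lib.Helper40.card_symplecticGroup (F := F) 3
  have h2 := Cfsg.Agent.Lib.Helper40.card_center_symplectic (F := F) (m := 3) (by norm_num)
  have h3 := Subgroup.card_eq_card_quotient_mul_card_subgroup
    (Subgroup.center (Matrix.symplecticGroup (Fin 3) F))
  rw [h1, h2, hF] at h3
  simp [Finset.prod_range_succ] at h3
  show Nat.card (Matrix.symplecticGroup (Fin 3) F ⧸
    Subgroup.center (Matrix.symplecticGroup (Fin 3) F)) = 2 ^ 9 * 3 ^ 9 * 5 * 7 * 13
  omega

/-- [PSPV] -/
theorem pkgPSpV : Cfsg.Agent.Lib.Helper14.PG63.PkgPSpV.{u} := by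
  intro F _ _ hF p hp
  rw [card_PSp6_three hF]
  unfold Cfsg.Agent.Lib.Helper14.PG63.Vx
  constructor
  · intro h
    rcases (Nat.Prime.dvd_mul hp).1 h with h | h
    · rcases (Nat.Prime.dvd_mul hp).1 h with h | h
      · rcases (Nat.Prime.dvd_mul hp).1 h with h | h
        · rcases (Nat.Prime.dvd_mul hp).1 h with h | h
          · left
            exact (Nat.prime_dvd_prime_iff_eq hp Nat.prime_two).1 (hp.dvd_of_dvd_pow h)
          · right; left
            exact (Nat.prime_dvd_prime_iff_eq hp Nat.prime_three).1 (hp.dvd_of_dvd_pow h)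
        · right; right; left
          exact (Nat.prime_dvd_prime_iff_eq hp Nat.prime_five).1 h
      · right; right; right; left
        exact (Nat.prime_dvd_prime_iff_eq hp (by norm_num)).1 h
    · right; right; right; right
      exact (Nat.prime_dvd_prime_iff_eq hp (by norm_num)).1 h
  · rintro (rfl | rfl | rfl | rfl | rfl) <;> norm_num

end Cfsg.Agent.Lib.Helper34.PG63
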