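import Mathlib
import Cfsg.Agent.Lib.Helper14.PG63.Defs
import Cfsg.Agent.Lib.Helper34.PG63.PSpV
import Cfsg.Agent.Lib.Helper40.PSpRP
import Cfsg.Agent.Lib.Helper40.PSpRS

/-!
# Project PG63 (S3664): package [PSPODD]

`PSp₆(3)` has an element of order `15` and none of order `21`, `39`, `35`, `65`, `91`.
-/

set_option autoImplicit false

namespace Cfsg.Agent.Lib.Helper34.PG63

open Matrix

universe u

theorem ord_three_mod5 : orderOf (((3 : ℕ) : ZMod 5)) = 4 := by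
  apply orderOf_eq_of_pow_and_pow_div_prime (by norm_num) (by decide)
  intro p hp hdvd
  have h2 : p = 2 := by
    have : p ∣ 2 ^ 2 := by norm_num; exact hdvd
    exact (Nat.prime_dvd_prime_iff_eq hp Nat.prime_two).1 (hp.dvd_of_dvd_pow this)
  subst h2
  decide

theorem ord_three_mod7 : orderOf (((3 : ℕ) : ZMod 7)) = 6 := by
  apply orderOf_eq_of_pow_and_pow_div_prime (by norm_num) (by decide)
  intro p hp hdvd
  have h2 : p = 2 ∨ p = 3 := by
    have : p ∣ 2 * 3 := by norm_num; exact hdvd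
    rcases (Nat.Prime.dvd_mul hp).1 this with h | h
    · exact Or.inl ((Nat.prime_dvd_prime_iff_eq hp Nat.prime_two).1 h)
    · exact Or.inr ((Nat.prime_dvd_prime_iff_eq hp Nat.prime_three).1 h)
  rcases h2 with rfl | rfl <;> decide

theorem ord_three_mod13 : orderOf (((3 : ℕ) : ZMod 13)) = 3 := by
  apply orderOf_eq_of_pow_and_pow_div_prime (by norm_num) (by decide)
  intro p hp hdvd
  have h2 : p = 3 := (Nat.prime_dvd_prime_iff_eq hp Nat.prime_three).1 hdvd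
  subst h2
  decide

/-- [PSPODD] -/
theorem pkgPSpOdd : Cfsg.Agent.Lib.Helper14.PG63.PkgPSpOdd.{u} := by
  intro F _ _ hF
  -- the characteristic is 3
  obtain ⟨p, hp⟩ := CharP.exists F
  have := hp
  have : Fact p.Prime := ⟨CharP.char_is_prime F p⟩
  have hp3 : p = 3 := by
    obtain ⟨n, hpn, hcard⟩ := FiniteField.card F p
    rw [hF] at hcard
    have hdvd : p ∣ 3 := by
      rw [hcard]
      exact dvd_pow_self p n.ne_zero
    exact (Nat.prime_dvd_prime_iff_eq hpn Nat.prime_three).1 hdvd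
  subst hp3
  have hcard := card_PSp6_three hF
  have h7G : 7 ∣ Nat.card (Cfsg.PSp 3 F) := by rw [hcard]; norm_num
  have h13G : 13 ∣ Nat.card (Cfsg.PSp 3 F) := by rw [hcard]; norm_num
  have hk5 : 4 = orderOf ((Fintype.card F : ℕ) : ZMod 5) := by rw [hF]; exact ord_three_mod5.symm
  have hk7 : 6 = orderOf ((Fintype.card F : ℕ) : ZMod 7) := by rw [hF]; exact ord_three_mod7.symm
  have hk13 : 3 = orderOf ((Fintype.card F : ℕ) : ZMod 13) := by
    rw [hF]; exact ord_three_mod13.symm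
  have hη4 : (Odd 4 ∧ 2 = 4) ∨ (Even 4 ∧ 2 * 2 = 4) := Or.inr ⟨by decide, rfl⟩
  have hη6 : (Odd 6 ∧ 3 = 6) ∨ (Even 6 ∧ 2 * 3 = 6) := Or.inr ⟨by decide, rfl⟩
  have hη3 : (Odd 3 ∧ 3 = 3) ∨ (Even 3 ∧ 2 * 3 = 3) := Or.inl ⟨by decide, rfl⟩
  have p5 : Nat.Prime 5 := by norm_num
  have p7 : Nat.Prime 7 := by norm_num
  have p13 : Nat.Prime 13 := by norm_num
  refine ⟨?_, ?_, ?_, ?_, ?_, ?_⟩
  · -- 15 = 5 * 3
    have h := Cfsg.Agent.Lib.Helper40.PSpRP.psp_rp_iff (F := F) 3 3 (by norm_num) 5 p5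
      (by norm_num) (by norm_num) 4 2 hk5 hη4
    by_contra hcon
    have h1 : 5 * 3 ∉ Set.range (orderOf : Cfsg.PSp 3 F → ℕ) := by
      rintro ⟨g, hg⟩
      exact hcon ⟨g, hg⟩
    have := h.1 h1
    omega
  · -- 21 = 7 * 3
    have h := Cfsg.Agent.Lib.Helper40.PSpRP.psp_rp_iff (F := F) 3 3 (by norm_num) 7 p7
      (by norm_num) (by norm_num) 6 3 hk7 hη6
    rintro ⟨g, hg⟩
    exact h.2 (by norm_num) ⟨g, hg⟩
  · -- 39 = 13 * 3
    have h := Cfsg.Agent.Lib.Helper40.PSpRP.psp_rp_iff (F := F) 3 3 (by norm_num) 13 p13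
      (by norm_num) (by norm_num) 3 3 hk13 hη3
    rintro ⟨g, hg⟩
    exact h.2 (by norm_num) ⟨g, hg⟩
  · -- 35 = 5 * 7
    have h := Cfsg.Agent.Lib.Helper40.PSpRS.psp_rs_iff (F := F) 3 3 (by norm_num) 5 7 p5 p7
      (by norm_num) (by norm_num) (by norm_num) (by norm_num) (by norm_num) h7G 4 6 2 3
      hk5 hk7 hη4 hη6 (by norm_num)
    rintro ⟨g, hg⟩
    refine h.2 ⟨by norm_num, ?_⟩ ⟨g, hg⟩
    rintro ⟨t, -, ht⟩
    omega
  · -- 65 = 5 * 13
    have h := Cfsg.Agent.Lib.Helper40.PSpRS.psp_rs_iff (F := F) 3 3 (by norm_num) 5 13 p5 p13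
      (by norm_num) (by norm_num) (by norm_num) (by norm_num) (by norm_num) h13G 4 3 2 3
      hk5 hk13 hη4 hη3 (by norm_num)
    rintro ⟨g, hg⟩
    refine h.2 ⟨by norm_num, ?_⟩ ⟨g, hg⟩
    rintro ⟨t, -, ht⟩
    omega
  · -- 91 = 7 * 13
    have h := Cfsg.Agent.Lib.Helper40.PSpRS.psp_rs_iff (F := F) 3 3 (by norm_num) 7 13 p7 p13
      (by norm_num) (by norm_num) (by norm_num) (by norm_num) (by norm_num) h13G 6 3 3 3
      hk7 hk13 hη6 hη3 (by norm_num)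
    rintro ⟨g, hg⟩
    refine h.2 ⟨by norm_num, ?_⟩ ⟨g, hg⟩
    rintro ⟨t, -, ht⟩
    omega

end Cfsg.Agent.Lib.Helper34.PG63
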